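import Cfsg.Agent.Lib.Rank2.Omega
import Cfsg.Agent.Lib.Transfer.Frat
import Cfsg.Prelude.Def_OddOrderLocal
import Mathlib

/-! Huppert's criterion: for `p > 3`, a `p`-group with `|Ω₁| ≤ p²` is metacyclic. -/

set_option autoImplicit false

namespace Cfsg.Agent.Lib.Rank2

open Cfsg Subgroup Cfsg.Agent.Lib.NormalE4
open scoped commutatorElement

universe u

variable {p : ℕ} [hp : Fact p.Prime]

section L1

variable {R : Type*} [Group R] [Finite R]

theorem comm_rev {F : Subgroup R} {g x : R} (h : g * x * g⁻¹ * x⁻¹ ∈ F) : ⁅x, g⁆ ∈ F := by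
  have e : ⁅x, g⁆ = (g * x * g⁻¹ * x⁻¹)⁻¹ := by
    simp only [commutatorElement_def]
    group
  rw [e]
  exact inv_mem h

/-- A normal subgroup covered modulo `F` by its commutators with the group lies in `F`. -/
theorem le_of_le_sup_comm (hR : IsPGroup p R) (X F : Subgroup R) [hX : X.Normal] [hF : F.Normal] (h : X ≤ F ⊔ ⁅X, (⊤ : Subgroup R)⁆) :
    X ≤ F := by
  by_contra hXF
  haveI hA : (X ⊔ F).Normal := inferInstance
  have hne : F ≠ X ⊔ F := by
    intro h1
    exact hXF (h1 ▸ le_sup_left)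
  let 𝒮 : Set (Subgroup R) := {N | N.Normal ∧ F ≤ N ∧ N ≤ X ⊔ F ∧ N ≠ X ⊔ F}
  obtain ⟨F₁, hF₁⟩ := Set.Finite.exists_maximal (Set.toFinite 𝒮) ⟨F, hF, le_rfl, le_sup_right, hne⟩
  obtain ⟨h1, h2, h3, h4⟩ := hF₁.prop
  haveI := h1
  obtain ⟨N₁, h5, h6, h7, h8⟩ := exists_normal_step hR F₁ (X ⊔ F) h3 h4
  have hpos : 0 < Nat.card F₁ := Nat.card_pos
  have hlt : Nat.card F₁ < Nat.card N₁ := by
    rw [h8]
    exact lt_mul_of_one_lt_right hpos hp.out.one_lt
  have hN₁ : N₁ = X ⊔ F := by
    by_contra hh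
    have h9 := hF₁.le_of_ge ⟨h5, h2.trans h6, h7, hh⟩ h6
    have := Subgroup.card_le_of_le h9
    omega
  subst hN₁
  have hc := fun g a (ha : a ∈ X ⊔ F) => comm_mem_of_card hR F₁ (X ⊔ F) h8 h3 g ha
  have h9 : ⁅X, (⊤ : Subgroup R)⁆ ≤ F₁ := by
    rw [commutator_le]
    intro x hx g _
    exact comm_rev (hc g x (le_sup_left (a := X) hx))
  have h10 : X ⊔ F ≤ F₁ := sup_le (h.trans (sup_le h2 h9)) h2
  exact h4 (le_antisymm h3 h10)

theorem normal_of_comm_le {N : Subgroup R} (h : commutator R ≤ N) : N.Normal := by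
  constructor
  intro n hn g
  have e : g * n * g⁻¹ = ⁅g, n⁆ * n := by
    simp only [commutatorElement_def]
    group
  rw [e]
  exact mul_mem (h (commutator_mem_commutator trivial trivial)) hn

theorem frattini_map_normal (M : Subgroup R) [hM : M.Normal] : ((frattini ↥M).map M.subtype).Normal := by
  constructor
  rintro _ ⟨x, hx, rfl⟩ g
  have h := (frattini_characteristic (G := ↥M))
  rw [Subgroup.characteristic_iff_map_eq] at h
  have h1 := h (MulAut.conjNormal g)
  have h2 : (MulAut.conjNormal g) x ∈ frattini ↥M := by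
    rw [← h1]
    exact ⟨x, hx, rfl⟩
  exact ⟨_, h2, rfl⟩

end L1

section L3

variable {R : Type u} [Group R] [Finite R]

/-- The commutators of `R̄` lie in the `p`-th powers of a cyclic normal subgroup with cyclic quotient. -/
theorem comm_le_zpowers_pow {Q : Type*} [Group Q] [Finite Q] (hQ : IsPGroup p Q) {N : Subgroup Q} [hN : N.Normal] (hcyc : IsCyclic (Q ⧸ N))
    {a : Q} (hNa : N = zpowers a) : ∃ hC₂ : (zpowers (a ^ p)).Normal, commutator Q ≤ zpowers (a ^ p) := by
  have hpp := hp.out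
  have hn : (zpowers (a ^ p)).Normal := by
    constructor
    rintro _ ⟨j, rfl⟩ g
    have h1 : g * a * g⁻¹ ∈ zpowers a := by
      rw [← hNa]
      exact hN.conj_mem a (by rw [hNa]; exact mem_zpowers a) g
    obtain ⟨k, hk⟩ := h1
    refine ⟨k * j, ?_⟩
    show (a ^ p) ^ (k * j) = g * (a ^ p) ^ j * g⁻¹
    rw [← conj_zpow, ← conj_pow, ← hk]
    simp only [← zpow_natCast, ← zpow_mul]
    congr 1
    ring
  refine ⟨hn, ?_⟩
  have hle : zpowers (a ^ p) ≤ N := by
    rw [hNa, zpowers_le]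
    exact pow_mem (mem_zpowers a) p
  have hcomm : ∀ (g : Q), ∀ x ∈ N, g * x * g⁻¹ * x⁻¹ ∈ zpowers (a ^ p) := by
    by_cases ha : a = 1
    · intro g x hx
      rw [hNa, ha, zpowers_one_eq_bot, Subgroup.mem_bot] at hx
      rw [hx]
      simp
    · have hord : orderOf a = orderOf (a ^ p) * p := by
        obtain ⟨k, hk⟩ := (IsPGroup.iff_orderOf.mp hQ) a
        have hk0 : k ≠ 0 := by
          rintro rfl
          rw [pow_zero] at hk
          exact ha (orderOf_eq_one_iff.mp hk)
        have hd : p ∣ orderOf a := by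
          rw [hk]
          exact dvd_pow_self p hk0
        rw [orderOf_pow' a hpp.ne_zero, Nat.gcd_eq_right hd, Nat.div_mul_cancel hd]
      have hcard : Nat.card N = Nat.card (zpowers (a ^ p)) * p := by
        rw [hNa, Nat.card_zpowers, Nat.card_zpowers, hord]
      intro g x hx
      exact comm_mem_of_card hQ (zpowers (a ^ p)) N hcard hle g hx
  let f : Q ⧸ zpowers (a ^ p) →* Q ⧸ N := QuotientGroup.lift _ (QuotientGroup.mk' N) (by
    intro x hx
    exact (QuotientGroup.eq_one_iff x).mpr (hle hx))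
  have hker : f.ker ≤ center (Q ⧸ zpowers (a ^ p)) := by
    intro q hq
    obtain ⟨x, rfl⟩ := QuotientGroup.mk_surjective q
    have hxN : x ∈ N := (QuotientGroup.eq_one_iff x).mp hq
    rw [Subgroup.mem_center_iff]
    intro r
    obtain ⟨g, rfl⟩ := QuotientGroup.mk_surjective r
    have h1 := hcomm g x hxN
    have h2 : (QuotientGroup.mk (g * x * g⁻¹ * x⁻¹) : Q ⧸ zpowers (a ^ p)) = 1 := (QuotientGroup.eq_one_iff _).mpr h1
    simp only [QuotientGroup.mk_mul, QuotientGroup.mk_inv] at h2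
    have h3 : (QuotientGroup.mk g : Q ⧸ zpowers (a ^ p)) * QuotientGroup.mk x * (QuotientGroup.mk g)⁻¹ = QuotientGroup.mk x :=
      mul_inv_eq_one.mp h2
    exact mul_inv_eq_iff_eq_mul.mp h3
  have hcq := commutative_of_cyclic_center_quotient f hker
  rw [_root_.commutator_def, commutator_le]
  intro x _ y _
  rw [← QuotientGroup.eq_one_iff]
  have h4 : (QuotientGroup.mk ⁅x, y⁆ : Q ⧸ zpowers (a ^ p)) = ⁅(QuotientGroup.mk x : Q ⧸ zpowers (a ^ p)), QuotientGroup.mk y⁆ := by
    simp only [commutatorElement_def, QuotientGroup.mk_mul, QuotientGroup.mk_inv]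
  rw [h4, commutatorElement_eq_one_iff_mul_comm]
  exact hcq _ _

/-- **Blackburn's criterion.** -/
theorem metacyclic_of_quot (hR : IsPGroup p R) (K : Subgroup R) [hK : K.Normal]
    (hKR : K ≤ commutator R) (hKT : K ≤ ⁅commutator R, (⊤ : Subgroup R)⁆ ⊔ closure {y | ∃ x ∈ commutator R, y = x ^ p})
    (hm : IsMetacyclic (R ⧸ K)) : IsMetacyclic R := by
  have hpp := hp.out
  obtain ⟨N, hN, hNc, hQc⟩ := hm
  haveI := hN
  obtain ⟨ab, hab⟩ := hNc.exists_generator
  have hNa : N = zpowers (ab : R ⧸ K) := by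
    apply le_antisymm
    · intro x hx
      obtain ⟨j, hj⟩ := hab ⟨x, hx⟩
      refine ⟨j, ?_⟩
      have := congrArg Subtype.val hj
      simpa using this
    · rw [zpowers_le]
      exact ab.2
  obtain ⟨a, ha⟩ := QuotientGroup.mk'_surjective K (ab : R ⧸ K)
  have hQ : IsPGroup p (R ⧸ K) := hR.to_quotient K
  obtain ⟨hC₂, hcomm⟩ := comm_le_zpowers_pow hQ hQc hNa
  have hle₁ : commutator R ≤ (zpowers ((ab : R ⧸ K) ^ p)).comap (QuotientGroup.mk' K) := by
    rw [_root_.commutator_def, commutator_le]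
    intro x _ y _
    show QuotientGroup.mk' K ⁅x, y⁆ ∈ zpowers ((ab : R ⧸ K) ^ p)
    rw [map_commutatorElement]
    exact hcomm (commutator_mem_commutator trivial trivial)
  have hR' : commutator R ≤ zpowers (a ^ p) ⊔ K := by
    intro r hr
    obtain ⟨j, hj⟩ := hle₁ hr
    have h1 : QuotientGroup.mk' K ((a ^ p) ^ j) = QuotientGroup.mk' K r := by
      rw [map_zpow, map_pow, ha]
      exact hj
    have h2 : ((a ^ p) ^ j)⁻¹ * r ∈ K := QuotientGroup.eq.mp h1
    have e : r = (a ^ p) ^ j * (((a ^ p) ^ j)⁻¹ * r) := by group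
    rw [e]
    exact mul_mem ((le_sup_left : zpowers (a ^ p) ≤ _) (zpow_mem (mem_zpowers _) j)) ((le_sup_right : K ≤ _) h2)
  set M := zpowers a ⊔ commutator R with hM
  have hMn : M.Normal := normal_of_comm_le le_sup_right
  haveI := hMn
  -- the quotient is cyclic
  have hQM : IsCyclic (R ⧸ M) := by
    obtain ⟨qb, hqb⟩ := hQc.exists_generator
    obtain ⟨bb, rfl⟩ := QuotientGroup.mk_surjective qb
    obtain ⟨b, rfl⟩ := QuotientGroup.mk_surjective bb
    refine ⟨⟨(QuotientGroup.mk b : R ⧸ M), ?_⟩⟩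
    intro r
    obtain ⟨x, rfl⟩ := QuotientGroup.mk_surjective r
    obtain ⟨i, hi⟩ := hqb (QuotientGroup.mk (QuotientGroup.mk x))
    refine ⟨i, ?_⟩
    have h1 : (QuotientGroup.mk (QuotientGroup.mk (b ^ i)) : (R ⧸ K) ⧸ N) = QuotientGroup.mk (QuotientGroup.mk x) := by
      rw [← hi]
      simp only [QuotientGroup.mk_zpow]
    have h2 := QuotientGroup.eq.mp h1
    rw [hNa] at h2
    obtain ⟨j, hj⟩ := h2
    have h3 : (QuotientGroup.mk (a ^ j) : R ⧸ K) = (QuotientGroup.mk (b ^ i))⁻¹ * QuotientGroup.mk x := by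
      have h4 : (QuotientGroup.mk a : R ⧸ K) = ab := ha
      rw [QuotientGroup.mk_zpow, h4]
      exact hj
    have h5 : (a ^ j)⁻¹ * ((b ^ i)⁻¹ * x) ∈ K := by
      apply QuotientGroup.eq.mp
      rw [h3, QuotientGroup.mk_mul, QuotientGroup.mk_inv]
    have h6 : (b ^ i)⁻¹ * x ∈ M := by
      have e : (b ^ i)⁻¹ * x = a ^ j * ((a ^ j)⁻¹ * ((b ^ i)⁻¹ * x)) := by group
      rw [e]
      exact mul_mem ((le_sup_left : zpowers a ≤ M) (zpow_mem (mem_zpowers a) j)) ((le_sup_right : commutator R ≤ M) (hKR h5))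
    show (QuotientGroup.mk b : R ⧸ M) ^ i = QuotientGroup.mk x
    rw [← QuotientGroup.mk_zpow]
    exact QuotientGroup.eq.mpr h6
  -- `M` is cyclic
  have hMcyc : IsCyclic M := by
    have hMp : IsPGroup p M := hR.to_subgroup M
    set F := (frattini ↥M).map M.subtype with hF
    haveI hFn : F.Normal := frattini_map_normal M
    have hpowF : ∀ x ∈ M, x ^ p ∈ F := fun x hx =>
      ⟨_, Cfsg.Agent.Lib.Transfer.pow_mem_frattini hMp ⟨x, hx⟩, rfl⟩
    have haM : a ∈ M := (le_sup_left : zpowers a ≤ M) (mem_zpowers a)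
    have hXF : commutator R ≤ F ⊔ ⁅commutator R, (⊤ : Subgroup R)⁆ := by
      refine hR'.trans (sup_le ?_ (hKT.trans (sup_le le_sup_right ?_)))
      · rw [zpowers_le]
        exact (le_sup_left : F ≤ _) (hpowF a haM)
      · rw [closure_le]
        rintro _ ⟨x, hx, rfl⟩
        exact (le_sup_left : F ≤ _) (hpowF x ((le_sup_right : commutator R ≤ M) hx))
    have hRF : commutator R ≤ F := le_of_le_sup_comm hR _ _ hXF
    have htop : zpowers (⟨a, haM⟩ : ↥M) ⊔ frattini ↥M = ⊤ := by
      rw [eq_top_iff]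
      rintro ⟨m, hm⟩ -
      obtain ⟨y, ⟨i, hi⟩, z, hz, hyz⟩ := Subgroup.mem_sup_of_normal_right.1 hm
      obtain ⟨f, hf, hfz⟩ := hRF hz
      have e : (⟨m, hm⟩ : ↥M) = (⟨a, haM⟩ : ↥M) ^ i * f := by
        apply Subtype.ext
        show m = a ^ i * (f : R)
        have h1 : (f : R) = z := hfz
        have h2 : a ^ i = y := hi
        rw [h1, h2, hyz]
      rw [e]
      exact mul_mem ((le_sup_left : zpowers (⟨a, haM⟩ : ↥M) ≤ _) (zpow_mem (mem_zpowers _) i))
        ((le_sup_right : frattini ↥M ≤ _) hf)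
    exact isCyclic_iff_exists_zpowers_eq_top.mpr ⟨_, frattini_nongenerating htop⟩
  exact ⟨M, hMn, hMcyc, hQM⟩

theorem comm_zpowers_le {u v : R} (N₀ : Subgroup R) [hN₀ : N₀.Normal] (h : ⁅u, v⁆ ∈ N₀) : ⁅zpowers u, zpowers v⁆ ≤ N₀ := by
  rw [commutator_le]
  rintro _ ⟨i, rfl⟩ _ ⟨j, rfl⟩
  rw [← QuotientGroup.eq_one_iff]
  have h1 : (QuotientGroup.mk ⁅u, v⁆ : R ⧸ N₀) = 1 := (QuotientGroup.eq_one_iff _).mpr h
  have h2 : Commute (QuotientGroup.mk u : R ⧸ N₀) (QuotientGroup.mk v) := by
    rw [← commutatorElement_eq_one_iff_commute]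
    rw [← h1]
    simp only [commutatorElement_def, QuotientGroup.mk_mul, QuotientGroup.mk_inv]
  have h3 := h2.zpow_zpow i j
  have h4 : (QuotientGroup.mk ⁅u ^ i, v ^ j⁆ : R ⧸ N₀) = ⁅(QuotientGroup.mk u : R ⧸ N₀) ^ i, (QuotientGroup.mk v : R ⧸ N₀) ^ j⁆ := by
    simp only [commutatorElement_def, QuotientGroup.mk_mul, QuotientGroup.mk_inv, QuotientGroup.mk_zpow]
  show (QuotientGroup.mk ⁅u ^ i, v ^ j⁆ : R ⧸ N₀) = 1
  rw [h4, commutatorElement_eq_one_iff_commute]
  exact h3

/-- The case of class at most two with commutators of order dividing `p`. -/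
theorem metacyclic_class2 (hodd : p ≠ 2) (hR : IsPGroup p R) (hO : Nat.card ↥(omegaOne p (⊤ : Subgroup R)) ≤ p ^ 2)
    (hcl : ⁅commutator R, (⊤ : Subgroup R)⁆ = ⊥) (hexp : ∀ x ∈ commutator R, x ^ p = 1) : IsMetacyclic R := by
  have hpp := hp.out
  have hcen : ∀ x y g : R, Commute ⁅x, y⁆ g := by
    intro x y g
    have h3 : ⁅⁅x, y⁆, g⁆ ∈ ⁅commutator R, (⊤ : Subgroup R)⁆ :=
      commutator_mem_commutator (commutator_mem_commutator trivial trivial) trivial
    rw [hcl, Subgroup.mem_bot, commutatorElement_eq_one_iff_commute] at h3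
    exact h3
  have hpw : ∀ x y : R, (x * y) ^ p = x ^ p * y ^ p := by
    intro x y
    rw [Cfsg.Agent.Lib.Transfer.mul_pow_class2 (hcen _ _ _) (hcen _ _ _) p]
    obtain ⟨k, hk⟩ := Cfsg.Agent.Lib.OddLocal.prime_dvd_choose_two (p := p) hodd
    rw [hk, pow_mul, hexp _ (commutator_mem_commutator trivial trivial), one_pow, mul_one]
  let π : R →* R := MonoidHom.mk' (fun x => x ^ p) hpw
  set W := π.range with hW
  have hkerc : Nat.card π.ker ≤ p ^ 2 := by
    refine le_trans (Subgroup.card_le_of_le ?_) hO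
    intro x hx
    exact mem_omega (MonoidHom.mem_ker.mp hx)
  have hcardR : Nat.card R ≤ p ^ 2 * Nat.card W := by
    have h1 := Subgroup.card_mul_index π.ker
    rw [Subgroup.index_ker] at h1
    rw [← h1]
    exact Nat.mul_le_mul_right _ hkerc
  have hWco : ∀ M : Subgroup R, IsCoatom M → W ≤ M := by
    rintro M hM _ ⟨x, rfl⟩
    exact Cfsg.Agent.Lib.Transfer.pow_mem_coatom hR hM x
  have hGEN : ∀ H : Subgroup R, H ⊔ W = ⊤ → H = ⊤ := by
    intro H hH
    by_contra hne
    obtain ⟨M, hM, hHM⟩ : ∃ M : Subgroup R, IsCoatom M ∧ H ≤ M := (eq_top_or_exists_le_coatom H).resolve_left hne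
    have h1 : H ⊔ W ≤ M := sup_le hHM (hWco M hM)
    rw [hH] at h1
    exact hM.1 (top_le_iff.mp h1)
  have hCOUNT : ∀ c : R, c ∉ W → ∃ b : R, zpowers c ⊔ zpowers b = ⊤ := by
    intro c hc
    by_cases h1 : zpowers c ⊔ W = ⊤
    · exact ⟨1, by rw [hGEN _ h1]; simp⟩
    · obtain ⟨b, hb⟩ : ∃ b : R, b ∉ zpowers c ⊔ W := by
        by_contra hno
        push Not at hno
        exact h1 (eq_top_iff.mpr fun x _ => hno x)
      refine ⟨b, hGEN _ ?_⟩
      have h2 : W < zpowers c ⊔ W := by
        refine lt_of_le_of_ne le_sup_right ?_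
        intro h3
        apply hc
        rw [h3]
        exact (le_sup_left : zpowers c ≤ _) (mem_zpowers c)
      have h3 : zpowers c ⊔ W < (zpowers c ⊔ zpowers b) ⊔ W := by
        refine lt_of_le_of_ne (sup_le_sup_right le_sup_left W) ?_
        intro h4
        apply hb
        rw [h4]
        exact (le_sup_of_le_left le_sup_right : zpowers b ≤ _) (mem_zpowers b)
      have h4 := mul_le_card_of_lt hR h2
      have h5 := mul_le_card_of_lt hR h3
      apply Subgroup.eq_top_of_card_eq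
      apply le_antisymm (Subgroup.card_le_card_group _)
      calc Nat.card R ≤ p ^ 2 * Nat.card W := hcardR
        _ = p * (p * Nat.card W) := by ring
        _ ≤ p * Nat.card ↥(zpowers c ⊔ W) := Nat.mul_le_mul_left _ h4
        _ ≤ _ := h5
  by_cases hcyc : IsCyclic R
  · refine ⟨⊤, inferInstance, ?_, ?_⟩
    · exact isCyclic_of_surjective (Subgroup.topEquiv (G := R)).symm (MulEquiv.surjective _)
    · haveI : Subsingleton (R ⧸ (⊤ : Subgroup R)) := QuotientGroup.subsingleton_quotient_top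
      infer_instance
  have hWne : W ≠ ⊤ := by
    intro h
    have h1 := hGEN ⊥ (by rw [h]; simp)
    apply hcyc
    have h2 : Subsingleton R := by
      constructor
      intro x y
      have hx : x ∈ (⊥ : Subgroup R) := by rw [h1]; trivial
      have hy : y ∈ (⊥ : Subgroup R) := by rw [h1]; trivial
      rw [Subgroup.mem_bot.mp hx, Subgroup.mem_bot.mp hy]
    infer_instance
  obtain ⟨a, ha⟩ : ∃ a : R, a ∉ W := by
    by_contra hno
    push Not at hno
    exact hWne (eq_top_iff.mpr fun x _ => hno x)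
  obtain ⟨b₀, hb₀⟩ := hCOUNT a ha
  set z := ⁅a, b₀⁆ with hz
  have hzn : (zpowers z).Normal := by
    constructor
    rintro _ ⟨i, rfl⟩ g
    have h1 : g * z ^ i * g⁻¹ = z ^ i := by
      have h2 : Commute (z ^ i) g := (hcen _ _ _).zpow_left i
      rw [h2.symm.eq, mul_inv_cancel_right]
    show g * z ^ i * g⁻¹ ∈ zpowers z
    rw [h1]
    exact zpow_mem (mem_zpowers z) i
  have hRz : commutator R ≤ zpowers z := by
    have h1 : ⁅zpowers a ⊔ zpowers b₀, zpowers a ⊔ zpowers b₀⁆ ≤ zpowers z := by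
      apply comm_sup_le
      · apply comm_sup_le_right
        · apply comm_zpowers_le
          rw [commutatorElement_self]
          exact one_mem _
        · apply comm_zpowers_le
          exact mem_zpowers z
      · apply comm_sup_le_right
        · apply comm_zpowers_le
          rw [← commutatorElement_inv]
          exact inv_mem (mem_zpowers z)
        · apply comm_zpowers_le
          rw [commutatorElement_self]
          exact one_mem _
    rw [hb₀] at h1
    exact h1
  -- a suitable generator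
  obtain ⟨c, hcW, hcR⟩ : ∃ c : R, c ∉ W ∧ commutator R ≤ zpowers c := by
    by_cases hz1 : z = 1
    · refine ⟨a, ha, hRz.trans ?_⟩
      rw [hz1, zpowers_one_eq_bot]
      exact bot_le
    · obtain ⟨c, hc, hmax⟩ := Set.exists_max_image {c : R | z ∈ zpowers c} orderOf (Set.toFinite _) ⟨z, mem_zpowers z⟩
      have hc' : z ∈ zpowers c := hc
      refine ⟨c, ?_, hRz.trans (zpowers_le.mpr hc')⟩
      rintro ⟨e, rfl⟩
      have he : z ∈ zpowers e := (zpowers_le.mpr (pow_mem (mem_zpowers e) p : e ^ p ∈ zpowers e)) hc'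
      have h1 := hmax e he
      have hc1 : e ^ p ≠ 1 := by
        intro h
        change e ^ p = 1 at h
        apply hz1
        have h2 : z ∈ zpowers (e ^ p) := hc'
        rw [h, zpowers_one_eq_bot] at h2
        exact Subgroup.mem_bot.mp h2
      have he1 : orderOf (e ^ p) = orderOf e / p := by
        rw [orderOf_pow' e hpp.ne_zero]
        have hd : p ∣ orderOf e := by
          rcases (hR e) with ⟨k, hk⟩
          have h3 : orderOf e ∣ p ^ k := orderOf_dvd_of_pow_eq_one hk
          obtain ⟨m, -, hm⟩ := (Nat.dvd_prime_pow hpp).mp h3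
          rcases m with _ | m
          · exfalso
            rw [pow_zero] at hm
            rw [orderOf_eq_one_iff.mp hm, one_pow] at hc1
            exact hc1 rfl
          · rw [hm, pow_succ]
            exact Dvd.intro_left _ rfl
        rw [Nat.gcd_eq_right hd]
      have hpos : 0 < orderOf e := orderOf_pos e
      have hlt : orderOf e / p < orderOf e := Nat.div_lt_self hpos hpp.one_lt
      change orderOf e ≤ orderOf (e ^ p) at h1
      omega
  have hNn : (zpowers c).Normal := normal_of_comm_le hcR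
  haveI := hNn
  obtain ⟨b, hb⟩ := hCOUNT c hcW
  refine ⟨zpowers c, hNn, inferInstance, ⟨⟨(QuotientGroup.mk b : R ⧸ zpowers c), ?_⟩⟩⟩
  intro r
  obtain ⟨x, rfl⟩ := QuotientGroup.mk_surjective r
  have hx : x ∈ zpowers c ⊔ zpowers b := by
    rw [hb]
    trivial
  obtain ⟨y, hy, w, ⟨j, hj⟩, hyw⟩ := Subgroup.mem_sup_of_normal_left.1 hx
  refine ⟨j, ?_⟩
  show (QuotientGroup.mk b : R ⧸ zpowers c) ^ j = QuotientGroup.mk x
  rw [← QuotientGroup.mk_zpow, QuotientGroup.eq, ← hyw]
  have hj' : b ^ j = w := hj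
  rw [hj']
  have e : w⁻¹ * (y * w) = w⁻¹ * y * w := by group
  rw [e]
  have := hNn.conj_mem y hy w⁻¹
  simpa using this

end L3

/-- **Huppert's criterion.** -/
theorem metacyclic_aux (hp3 : 3 < p) : ∀ (n : ℕ) (R : Type u) [Group R] [Finite R], Nat.card R = n → IsPGroup p R →
    Nat.card ↥(omegaOne p (⊤ : Subgroup R)) ≤ p ^ 2 → IsMetacyclic R := by
  intro n
  induction n using Nat.strong_induction_on with
  | _ n ih =>
    intro R _ _ hn hR hO
    have hpp := hp.out
    have hodd : p ≠ 2 := by omega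
    set T : Subgroup R := closure {y | ∃ x ∈ commutator R, y = x ^ p} with hT
    haveI hTn : T.Normal := by
      apply Cfsg.Agent.Lib.Transfer.normal_closure_of_conj
      rintro _ ⟨x, hx, rfl⟩ g
      exact ⟨g * x * g⁻¹, (inferInstance : (commutator R).Normal).conj_mem x hx g, by rw [conj_pow]⟩
    set K := ⁅commutator R, (⊤ : Subgroup R)⁆ ⊔ T with hK
    haveI hKn : K.Normal := inferInstance
    by_cases hK0 : K = ⊥
    · apply metacyclic_class2 hodd hR hO
      · rw [eq_bot_iff, ← hK0]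
        exact le_sup_left
      · intro x hx
        have h1 : x ^ p ∈ K := (le_sup_right : T ≤ K) (subset_closure ⟨x, hx, rfl⟩)
        rw [hK0, Subgroup.mem_bot] at h1
        exact h1
    · have hlt : Nat.card (R ⧸ K) < n := by
        have h1 := Subgroup.card_eq_card_quotient_mul_card_subgroup K
        rw [← hn, h1]
        have hpos : 0 < Nat.card (R ⧸ K) := Nat.card_pos
        refine lt_mul_of_one_lt_right hpos ?_
        by_contra hh
        have h2 : Nat.card K = 1 := by
          have : 0 < Nat.card K := Nat.card_pos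
          omega
        exact hK0 (Subgroup.card_eq_one.mp h2)
      have hKR : K ≤ commutator R := by
        apply sup_le
        · exact (Subgroup.commutator_le_left _ _)
        · rw [hT, closure_le]
          rintro _ ⟨x, hx, rfl⟩
          exact pow_mem hx p
      exact metacyclic_of_quot hR K hKR le_rfl (ih _ hlt _ rfl (hR.to_quotient K) (s0637 hp3 hR hO K))

end Cfsg.Agent.Lib.Rank2
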