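import Cfsg.Agent.Lib.Rank2.Expo
import Cfsg.Agent.Lib.Amalgam.Critical
import Mathlib

/-! For `p > 3`, the condition `|Ω₁(R)| ≤ p²` passes to quotients. -/

set_option autoImplicit false

namespace Cfsg.Agent.Lib.Rank2

open Cfsg Subgroup Cfsg.Agent.Lib.NormalE4
open scoped commutatorElement

universe u

variable {p : ℕ} [hp : Fact p.Prime]

section basic

variable {R : Type*} [Group R]

theorem mem_omega {x : R} (hx : x ^ p = 1) : x ∈ omegaOne p (⊤ : Subgroup R) :=
  subset_closure ⟨trivial, hx⟩

theorem omega_normal [Finite R] : (omegaOne p (⊤ : Subgroup R)).Normal := by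
  apply Cfsg.Agent.Lib.Transfer.normal_closure_of_conj
  rintro s ⟨-, hs⟩ g
  refine ⟨trivial, ?_⟩
  rw [conj_pow, hs]
  group

theorem omega_eq_closure : omegaOne p (⊤ : Subgroup R) = closure {x : R | x ^ p = 1} := by
  unfold omegaOne
  congr 1
  ext x
  simp

theorem omega_sub [Finite R] (hO : Nat.card ↥(omegaOne p (⊤ : Subgroup R)) ≤ p ^ 2) (H : Subgroup R) :
    Nat.card ↥(omegaOne p (⊤ : Subgroup ↥H)) ≤ p ^ 2 := by
  have h1 : (omegaOne p (⊤ : Subgroup ↥H)).map H.subtype ≤ omegaOne p (⊤ : Subgroup R) := by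
    rw [Subgroup.map_le_iff_le_comap, omegaOne, closure_le]
    rintro x ⟨-, hx⟩
    exact mem_omega (congrArg Subtype.val hx)
  have h2 := Subgroup.card_le_of_le h1
  rw [Subgroup.card_map_of_injective H.subtype_injective] at h2
  exact h2.trans hO

end basic

section classthree

variable {R : Type*} [Group R] [Finite R]

theorem class3_of_small (hR : IsPGroup p R) (A : Subgroup R) [hA : A.Normal] (hc : Nat.card A ≤ p ^ 2) :
    ⁅⁅A, (⊤ : Subgroup R)⁆, (⊤ : Subgroup R)⁆ = ⊥ := by
  have hpp := hp.out
  have hcen : ∀ B : Subgroup R, B.Normal → Nat.card B ≤ p → ⁅B, (⊤ : Subgroup R)⁆ = ⊥ := by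
    intro B hB hBc
    rw [eq_bot_iff, commutator_le]
    intro b hb g _
    by_cases h1 : B = ⊥
    · rw [h1, Subgroup.mem_bot] at hb
      rw [hb, commutatorElement_one_left]
      exact one_mem _
    · obtain ⟨k, hk⟩ := IsPGroup.iff_card.mp (hR.to_subgroup B)
      have hk1 : k = 1 := by
        rcases k with _ | _ | k
        · rw [pow_zero, Subgroup.card_eq_one] at hk
          exact absurd hk h1
        · rfl
        · exfalso
          rw [hk] at hBc
          have : p ^ 1 < p ^ (k + 1 + 1) := Nat.pow_lt_pow_right hpp.one_lt (by omega)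
          rw [pow_one] at this
          omega
      subst hk1
      have hb2 : Nat.card B = Nat.card (⊥ : Subgroup R) * p := by
        rw [hk, Subgroup.card_bot, one_mul, pow_one]
      have h2 := comm_mem_of_card hR ⊥ B hb2 bot_le g hb
      rw [Subgroup.mem_bot] at h2
      have e : ⁅b, g⁆ = (g * b * g⁻¹ * b⁻¹)⁻¹ := by
        simp only [commutatorElement_def]
        group
      rw [e, h2, inv_one]
      exact one_mem _
  obtain ⟨a, ha⟩ := IsPGroup.iff_card.mp (hR.to_subgroup A)
  have ha2 : a ≤ 2 := by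
    rw [ha] at hc
    exact (Nat.pow_le_pow_iff_right hpp.one_lt).mp hc
  by_cases ha1 : a ≤ 1
  · rw [hcen A hA (by
      rw [ha]
      calc p ^ a ≤ p ^ 1 := Nat.pow_le_pow_right hpp.pos ha1
        _ = p := pow_one p)]
    rw [eq_bot_iff, commutator_le]
    intro x hx g _
    rw [Subgroup.mem_bot] at hx
    rw [hx, commutatorElement_one_left]
    exact one_mem _
  · have ha3 : a = 2 := by omega
    subst ha3
    obtain ⟨F, hFn, hFA, hFc⟩ := exists_normal_card hR A 1 (by
      rw [ha]
      exact Nat.pow_le_pow_right hpp.pos (by norm_num))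
    haveI := hFn
    have hcard : Nat.card A = Nat.card F * p := by
      rw [ha, hFc, pow_two, pow_one]
    have h1 : ⁅A, (⊤ : Subgroup R)⁆ ≤ F := by
      rw [commutator_le]
      intro b hb g _
      have h2 := comm_mem_of_card hR F A hcard hFA g hb
      have e : ⁅b, g⁆ = (g * b * g⁻¹ * b⁻¹)⁻¹ := by
        simp only [commutatorElement_def]
        group
      rw [e]
      exact inv_mem h2
    rw [eq_bot_iff]
    refine (commutator_mono h1 le_rfl).trans ?_
    rw [hcen F hFn (by rw [hFc, pow_one])]

end classthree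

/-- The `p`-power map on the elements with `p`-th power in a central subgroup of order at most `p`. -/
theorem omega_mul_pow (hp3 : 3 < p) : ∀ (n : ℕ) (R : Type u) [Group R] [Finite R], Nat.card R = n → IsPGroup p R →
    Nat.card ↥(omegaOne p (⊤ : Subgroup R)) ≤ p ^ 2 → ∀ Z : Subgroup R, Z ≤ center R → Nat.card Z ≤ p →
    ∀ x y : R, x ^ p ∈ Z → y ^ p ∈ Z → (x * y) ^ p = x ^ p * y ^ p := by
  have hodd : p ≠ 2 := by omega
  intro n
  induction n using Nat.strong_induction_on with
  | _ n ih =>
    intro R _ _ hn hR hO Z hZc hZp x y hx hy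
    have hpp := hp.out
    have hlt : ∀ H : Subgroup R, H ≠ ⊤ → Nat.card H < n := by
      intro H hH
      rw [← hn, ← Subgroup.card_top (G := R)]
      exact Cfsg.Agent.Lib.Core.card_lt_card_of_lt (lt_top_iff_ne_top.mpr hH)
    have hsub : ∀ H : Subgroup R, H ≠ ⊤ → ∀ u ∈ H, ∀ v ∈ H, u ^ p ∈ Z → v ^ p ∈ Z → (u * v) ^ p = u ^ p * v ^ p := by
      intro H hH u hu v hv hup hvp
      have hZH : Z.subgroupOf H ≤ center ↥H := by
        intro z hz
        rw [Subgroup.mem_center_iff]
        intro w
        apply Subtype.ext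
        exact (Subgroup.mem_center_iff.mp (hZc (Subgroup.mem_subgroupOf.mp hz))) _
      have hZHc : Nat.card (Z.subgroupOf H) ≤ p := by
        refine le_trans ?_ hZp
        have h1 : (Z.subgroupOf H).map H.subtype ≤ Z := by
          rintro _ ⟨z, hz, rfl⟩
          exact Subgroup.mem_subgroupOf.mp hz
        have h2 := Subgroup.card_le_of_le h1
        rwa [Subgroup.card_map_of_injective H.subtype_injective] at h2
      have h1 := ih _ (hlt H hH) ↥H rfl (hR.to_subgroup H) (omega_sub hO H) (Z.subgroupOf H) hZH hZHc ⟨u, hu⟩ ⟨v, hv⟩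
        (Subgroup.mem_subgroupOf.mpr hup) (Subgroup.mem_subgroupOf.mpr hvp)
      exact congrArg Subtype.val h1
    by_cases hgen : closure ({x, y} : Set R) = ⊤
    swap
    · exact hsub _ hgen x (subset_closure (Or.inl rfl)) y (subset_closure (Or.inr rfl)) hx hy
    by_cases hcyc : IsCyclic R
    · letI := IsCyclic.commGroup (α := R)
      exact mul_pow x y p
    haveI : Group.IsNilpotent R := hR.isNilpotent
    have hprop : ∀ z : R, normalClosure ({z} : Set R) ≠ ⊤ := by
      intro z h
      have hne : zpowers z ≠ ⊤ := by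
        intro h2
        exact hcyc (isCyclic_iff_exists_zpowers_eq_top.mpr ⟨z, h2⟩)
      obtain ⟨M, hM, hzM⟩ : ∃ M : Subgroup R, IsCoatom M ∧ zpowers z ≤ M :=
        (eq_top_or_exists_le_coatom (zpowers z)).resolve_left hne
      have hMn : M.Normal := by
        have h1 := Group.normalizerCondition_of_isNilpotent M (lt_top_iff_ne_top.mpr hM.1)
        exact normalizer_eq_top_iff.mp (hM.2 _ h1)
      have h3 : normalClosure ({z} : Set R) ≤ M := normalClosure_le_normal (by
        rintro _ rfl
        exact hzM (mem_zpowers _))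
      rw [h] at h3
      exact hM.1 (top_le_iff.mp h3)
    have hcenZ : ∀ z ∈ Z, ∀ g : R, g * z * g⁻¹ = z := by
      intro z hz g
      have h1 := (Subgroup.mem_center_iff.mp (hZc hz)) g
      rw [h1, mul_inv_cancel_right]
    -- the powers in a normal closure
    have hexp : ∀ z : R, z ^ p ∈ Z → ∀ v ∈ normalClosure ({z} : Set R), v ^ p ∈ Z := by
      intro z hz v hv
      have key : v ∈ normalClosure ({z} : Set R) ∧ v ^ p ∈ Z := by
        have hv' : v ∈ closure (Group.conjugatesOfSet ({z} : Set R)) := hv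
        clear hv
        induction hv' using Subgroup.closure_induction with
        | mem a ha =>
          refine ⟨subset_closure ha, ?_⟩
          rw [Group.mem_conjugatesOfSet_iff] at ha
          obtain ⟨b, rfl, hab⟩ := ha
          obtain ⟨c, rfl⟩ := isConj_iff.mp hab
          rw [conj_pow, hcenZ _ hz]
          exact hz
        | one =>
          refine ⟨one_mem _, ?_⟩
          rw [one_pow]
          exact one_mem _
        | mul a b _ _ iha ihb =>
          refine ⟨mul_mem iha.1 ihb.1, ?_⟩
          rw [hsub _ (hprop z) a iha.1 b ihb.1 iha.2 ihb.2]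
          exact mul_mem iha.2 ihb.2
        | inv a _ iha =>
          refine ⟨inv_mem iha.1, ?_⟩
          rw [inv_pow]
          exact inv_mem iha.2
      exact key.2
    haveI hOn : (omegaOne p (⊤ : Subgroup R)).Normal := omega_normal
    have hcomm : ∀ z : R, z ^ p ∈ Z → ⁅normalClosure ({z} : Set R), (⊤ : Subgroup R)⁆ ≤ omegaOne p (⊤ : Subgroup R) := by
      intro z hz
      rw [commutator_le]
      intro v hv g _
      apply mem_omega
      have hv2 := hexp z hz v hv
      have hw : g * v⁻¹ * g⁻¹ ∈ normalClosure ({z} : Set R) :=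
        (normalClosure_normal).conj_mem _ (inv_mem hv) g
      have hw2 := hexp z hz _ hw
      have e : ⁅v, g⁆ = v * (g * v⁻¹ * g⁻¹) := by
        simp only [commutatorElement_def]
        group
      rw [e, hsub _ (hprop z) v hv _ hw hv2 hw2, conj_pow, inv_pow, hcenZ _ (inv_mem hv2), mul_inv_cancel]
    have hXY : normalClosure ({x} : Set R) ⊔ normalClosure ({y} : Set R) = ⊤ := by
      rw [eq_top_iff, ← hgen, closure_le]
      rintro a (rfl | ha)
      · exact (le_sup_left : normalClosure ({a} : Set R) ≤ _) (subset_normalClosure rfl)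
      · rw [Set.mem_singleton_iff.mp ha]
        exact (le_sup_right : normalClosure ({y} : Set R) ≤ _) (subset_normalClosure rfl)
    have hder : commutator R ≤ omegaOne p (⊤ : Subgroup R) := by
      rw [commutator_def, ← hXY]
      rw [hXY]
      nth_rewrite 1 [← hXY]
      exact comm_sup_le _ _ _ _ (hcomm x hx) (hcomm y hy)
    have hcl : ⁅⁅commutator R, (⊤ : Subgroup R)⁆, (⊤ : Subgroup R)⁆ = ⊥ := by
      rw [eq_bot_iff, ← class3_of_small hR _ hO]
      exact commutator_mono (commutator_mono hder le_rfl) le_rfl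
    apply Cfsg.Agent.Lib.Transfer.mul_pow_of_small_class (Or.inr ⟨hp3, hcl⟩)
    rw [← omega_eq_closure]
    exact hder

/-- Factoring out a central subgroup of order at most `p`. -/
theorem card_omega_quot {R : Type u} [Group R] [Finite R] (hp3 : 3 < p) (hR : IsPGroup p R)
    (hO : Nat.card ↥(omegaOne p (⊤ : Subgroup R)) ≤ p ^ 2) (Z : Subgroup R) [hZn : Z.Normal] (hZc : Z ≤ center R) (hZp : Nat.card Z ≤ p) :
    Nat.card ↥(omegaOne p (⊤ : Subgroup (R ⧸ Z))) ≤ p ^ 2 := by
  have hpp := hp.out
  have hmp := omega_mul_pow hp3 _ R rfl hR hO Z hZc hZp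
  let U : Subgroup R :=
    { carrier := {x | x ^ p ∈ Z}
      mul_mem' := fun {a b} ha hb => by
        show (a * b) ^ p ∈ Z
        rw [hmp a b ha hb]
        exact mul_mem ha hb
      one_mem' := by
        show (1 : R) ^ p ∈ Z
        rw [one_pow]
        exact one_mem _
      inv_mem' := fun {a} ha => by
        show a⁻¹ ^ p ∈ Z
        rw [inv_pow]
        exact inv_mem ha }
  have hZU : Z ≤ U := fun z hz => pow_mem hz p
  let δ : ↥U →* ↥Z := MonoidHom.mk' (fun x => ⟨(x : R) ^ p, x.2⟩) (fun a b => Subtype.ext (hmp a b a.2 b.2))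
  have hkerU : Nat.card δ.ker ≤ p ^ 2 := by
    refine le_trans ?_ hO
    have h1 : δ.ker.map U.subtype ≤ omegaOne p (⊤ : Subgroup R) := by
      rintro _ ⟨x, hx, rfl⟩
      apply mem_omega
      exact congrArg Subtype.val (MonoidHom.mem_ker.mp hx)
    have h2 := Subgroup.card_le_of_le h1
    rwa [Subgroup.card_map_of_injective U.subtype_injective] at h2
  have hcard : Nat.card U ≤ p ^ 2 * Nat.card Z := by
    have h1 := Subgroup.card_mul_index δ.ker
    rw [Subgroup.index_ker] at h1
    rw [← h1]
    exact Nat.mul_le_mul hkerU (Subgroup.card_le_card_group _)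
  have hmap := Cfsg.Agent.Lib.Offender.card_map_mul_inf (QuotientGroup.mk' Z) U
  rw [QuotientGroup.ker_mk', inf_eq_right.mpr hZU] at hmap
  have hle : omegaOne p (⊤ : Subgroup (R ⧸ Z)) ≤ U.map (QuotientGroup.mk' Z) := by
    rw [omegaOne, closure_le]
    rintro xb ⟨-, hx⟩
    obtain ⟨x, rfl⟩ := QuotientGroup.mk'_surjective Z xb
    refine ⟨x, ?_, rfl⟩
    show x ^ p ∈ Z
    rw [← QuotientGroup.eq_one_iff]
    exact hx
  refine (Subgroup.card_le_of_le hle).trans ?_
  have hZpos : 0 < Nat.card Z := Nat.card_pos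
  rw [← hmap] at hcard
  exact Nat.le_of_mul_le_mul_right hcard hZpos

/-- **The bound passes to all homomorphic images.** -/
theorem card_omega_of_surj (hp3 : 3 < p) : ∀ (n : ℕ) (R : Type u) [Group R] [Finite R], Nat.card R = n → IsPGroup p R →
    Nat.card ↥(omegaOne p (⊤ : Subgroup R)) ≤ p ^ 2 → ∀ (S : Type u) [Group S] (f : R →* S), Function.Surjective f →
    Nat.card ↥(omegaOne p (⊤ : Subgroup S)) ≤ p ^ 2 := by
  intro n
  induction n using Nat.strong_induction_on with
  | _ n ih =>
    intro R _ _ hn hR hO S _ f hf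
    have hpp := hp.out
    haveI : Finite S := Finite.of_surjective f hf
    by_cases hker : f.ker = ⊥
    · have h1 : omegaOne p (⊤ : Subgroup S) ≤ (omegaOne p (⊤ : Subgroup R)).map f := by
        rw [omegaOne, closure_le]
        rintro s ⟨-, hs⟩
        obtain ⟨r, rfl⟩ := hf s
        refine ⟨r, mem_omega ?_, rfl⟩
        apply (MonoidHom.ker_eq_bot_iff f).mp hker
        rw [map_pow, hs, map_one]
      have h2 := Subgroup.card_le_of_le h1
      have h3 := Cfsg.Agent.Lib.Offender.card_map_mul_inf f (omegaOne p (⊤ : Subgroup R))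
      refine h2.trans (le_trans ?_ hO)
      rw [← h3]
      exact Nat.le_mul_of_pos_right _ Nat.card_pos
    · haveI : Group.IsNilpotent R := hR.isNilpotent
      have hZ := Cfsg.Agent.Lib.Core.normal_inf_center_ne_bot f.ker hker
      have hdvd : p ∣ Nat.card ↥(f.ker ⊓ center R) := by
        obtain ⟨k, hk⟩ := IsPGroup.iff_card.mp (hR.to_subgroup (f.ker ⊓ center R))
        rw [hk]
        cases k with
        | zero =>
          rw [pow_zero, Subgroup.card_eq_one] at hk
          exact absurd hk hZ
        | succ k => exact dvd_pow_self p (Nat.succ_ne_zero k)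
      obtain ⟨z, hz⟩ := exists_prime_orderOf_dvd_card' p hdvd
      have hz' : orderOf (z : R) = p := by
        rw [← hz]
        exact Subgroup.orderOf_coe z
      have hzcen : (z : R) ∈ center R := z.2.2
      have hzker : (z : R) ∈ f.ker := z.2.1
      have hZn : (zpowers (z : R)).Normal := by
        constructor
        intro x hx g
        have h1 : x ∈ center R := (zpowers_le.mpr hzcen) hx
        have h2 := (Subgroup.mem_center_iff.mp h1) g
        rw [h2, mul_inv_cancel_right]
        exact hx
      have hZc : Nat.card (zpowers (z : R)) = p := by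
        rw [Nat.card_zpowers, hz']
      have hO₁ := card_omega_quot hp3 hR hO (zpowers (z : R)) (zpowers_le.mpr hzcen) hZc.le
      have hlt : Nat.card (R ⧸ zpowers (z : R)) < n := by
        have h1 := Subgroup.card_eq_card_quotient_mul_card_subgroup (zpowers (z : R))
        rw [hZc] at h1
        rw [← hn, h1]
        have hpos : 0 < Nat.card (R ⧸ zpowers (z : R)) := Nat.card_pos
        exact lt_mul_of_one_lt_right hpos hpp.one_lt
      let f₁ : R ⧸ zpowers (z : R) →* S := QuotientGroup.lift _ f (by
        intro x hx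
        exact (zpowers_le.mpr hzker) hx)
      have hf₁ : Function.Surjective f₁ := by
        intro s
        obtain ⟨r, rfl⟩ := hf s
        exact ⟨QuotientGroup.mk r, rfl⟩
      exact ih _ hlt _ rfl (hR.to_quotient _) hO₁ S f₁ hf₁

/-- **S0637.** -/
theorem s0637 {R : Type u} [Group R] [Finite R] (hp3 : 3 < p) (hR : IsPGroup p R)
    (hO : Nat.card ↥(omegaOne p (⊤ : Subgroup R)) ≤ p ^ 2) (T : Subgroup R) [hT : T.Normal] :
    Nat.card ↥(omegaOne p (⊤ : Subgroup (R ⧸ T))) ≤ p ^ 2 :=
  card_omega_of_surj hp3 _ R rfl hR hO _ (QuotientGroup.mk' T) (QuotientGroup.mk'_surjective T)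

end Cfsg.Agent.Lib.Rank2
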